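import Mathlib
import Cfsg.Agent.Designs.SteinerCount
import Cfsg.Agent.Eq.Def_Sporadic_a

/-!
Steiner systems S(2,5,21): hyperovals, extension of bijections between hyperovals, counts of arcs.
-/

set_option autoImplicit false

namespace CfsgLib.PlaneFour

open Cfsg

variable {α : Type*} [Fintype α] [DecidableEq α]

/-- The hypothesis. -/
structure Plane (α : Type*) [Fintype α] [DecidableEq α] (L : Set (Finset α)) : Prop where
  card_pts : Fintype.card α = 21
  steiner : IsSteinerSystem 2 5 L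

/-- No three points on a line. -/
def Arc (L : Set (Finset α)) (S : Finset α) : Prop := ∀ l ∈ L, (l ∩ S).card ≤ 2

/-- A hyperoval. -/
def Oval (L : Set (Finset α)) (H : Finset α) : Prop := H.card = 6 ∧ Arc L H

/-- A point on no secant of `S`. -/
def Free (L : Set (Finset α)) (S : Finset α) (x : α) : Prop := ∀ l ∈ L, x ∈ l → (l ∩ S).card ≤ 1

/-- The line set as a finset. -/
noncomputable def lines (L : Set (Finset α)) : Finset (Finset α) := L.toFinite.toFinset

variable {L : Set (Finset α)}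

@[simp] theorem mem_lines {l : Finset α} : l ∈ lines L ↔ l ∈ L := Set.Finite.mem_toFinset _

theorem Arc.mono {S T : Finset α} (h : Arc L T) (hST : S ⊆ T) : Arc L S := fun l hl =>
  (Finset.card_le_card (Finset.inter_subset_inter_left hST)).trans (h l hl)

namespace Plane

variable (hP : Plane α L)
include hP

theorem card_line {l : Finset α} (hl : l ∈ L) : l.card = 5 := hP.steiner.1 l hl

theorem exists_line {a b : α} (hab : a ≠ b) : ∃ l ∈ L, a ∈ l ∧ b ∈ l := by
  obtain ⟨l, ⟨hl, hsub⟩, -⟩ := hP.steiner.2 {a, b} (Finset.card_pair hab)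
  exact ⟨l, hl, hsub (by simp), hsub (by simp)⟩

theorem line_unique {a b : α} {l m : Finset α} (hl : l ∈ L) (hm : m ∈ L) (hab : a ≠ b)
    (hal : a ∈ l) (hbl : b ∈ l) (ham : a ∈ m) (hbm : b ∈ m) : l = m :=
  (hP.steiner.2 {a, b} (Finset.card_pair hab)).unique
    ⟨hl, by simp [Finset.insert_subset_iff, hal, hbl]⟩ ⟨hm, by simp [Finset.insert_subset_iff, ham, hbm]⟩

theorem point_unique {a b : α} {l m : Finset α} (hl : l ∈ L) (hm : m ∈ L) (hne : l ≠ m)
    (hal : a ∈ l) (ham : a ∈ m) (hbl : b ∈ l) (hbm : b ∈ m) : a = b := by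
  by_contra hab
  exact hne (hP.line_unique hl hm hab hal hbl ham hbm)

theorem card_lines : (lines L).card = 21 := by
  have h := SteinerCount.card_through (B := lines L) (t := 2) (k := 5)
    (fun b hb => hP.steiner.1 b (mem_lines.1 hb))
    (fun s hs => by simpa only [mem_lines] using hP.steiner.2 s hs) ∅ (by simp)
  rw [hP.card_pts] at h
  simp [Nat.choose] at h
  omega

theorem card_pencil (x : α) : ((lines L).filter (x ∈ ·)).card = 5 := by
  have h := SteinerCount.card_through (B := lines L) (t := 2) (k := 5)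
    (fun b hb => hP.steiner.1 b (mem_lines.1 hb))
    (fun s hs => by simpa only [mem_lines] using hP.steiner.2 s hs) {x} (by simp)
  rw [hP.card_pts] at h
  simp [Finset.singleton_subset_iff, Nat.choose] at h
  omega

theorem meet {l m : Finset α} (hl : l ∈ L) (hm : m ∈ L) : ∃ x, x ∈ l ∧ x ∈ m := by
  obtain ⟨p, hp⟩ := Finset.card_pos.1 (show 0 < m.card by rw [hP.card_line hm]; norm_num)
  by_contra hno
  push Not at hno
  have hpl : p ∉ l := fun h => hno p h hp
  choose f hf hfp hfy using fun y : l => hP.exists_line (a := p) (b := (y : α))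
    (fun e => hpl (e ▸ y.2))
  have hinj : Function.Injective f := fun y z h => by
    by_contra hne
    exact hpl (hP.line_unique (hf y) hl (fun e => hne (Subtype.ext e)) (hfy y) (h ▸ hfy z) y.2 z.2 ▸ hfp y)
  have himg : Finset.univ.image f = (lines L).filter (p ∈ ·) := by
    refine Finset.eq_of_subset_of_card_le ?_ ?_
    · intro k hk
      obtain ⟨y, -, rfl⟩ := Finset.mem_image.1 hk
      simp [hf y, hfp y]
    · rw [Finset.card_image_of_injective _ hinj, hP.card_pencil, Finset.card_univ, Fintype.card_coe,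
        hP.card_line hl]
  obtain ⟨y, -, hy⟩ := Finset.mem_image.1 (himg ▸ (show m ∈ (lines L).filter (p ∈ ·) by simp [hm, hp]) :
    m ∈ Finset.univ.image f)
  exact hno y y.2 (hy ▸ hfy y)

/-! ### Hyperovals -/

theorem oval_secant {H l : Finset α} (hH : Oval L H) (hl : l ∈ L) {p : α} (hp : p ∈ H)
    (hpl : p ∈ l) : ∃ q ∈ H, q ≠ p ∧ q ∈ l := by
  choose f hf hfp hfy using fun y : (H.erase p : Finset α) => hP.exists_line (a := p) (b := (y : α))
    (fun e => (Finset.mem_erase.1 y.2).1 e.symm)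
  have hinj : Function.Injective f := fun y z h => by
    by_contra hne
    have hne' : (y : α) ≠ z := fun e => hne (Subtype.ext e)
    have hcard := hH.2 (f y) (hf y)
    have h3 : ({p, (y : α), (z : α)} : Finset α).card = 3 :=
      Finset.card_eq_three.2 ⟨p, y, z, (Finset.mem_erase.1 y.2).1.symm,
        (Finset.mem_erase.1 z.2).1.symm, hne', rfl⟩
    have hsub : ({p, (y : α), (z : α)} : Finset α) ⊆ f y ∩ H := by
      simp only [Finset.insert_subset_iff, Finset.singleton_subset_iff, Finset.mem_inter]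
      exact ⟨⟨hfp y, hp⟩, ⟨hfy y, (Finset.mem_erase.1 y.2).2⟩,
        ⟨h ▸ hfy z, (Finset.mem_erase.1 z.2).2⟩⟩
    have := Finset.card_le_card hsub
    omega
  have himg : Finset.univ.image f = (lines L).filter (p ∈ ·) := by
    refine Finset.eq_of_subset_of_card_le ?_ ?_
    · intro k hk
      obtain ⟨y, -, rfl⟩ := Finset.mem_image.1 hk
      simp [hf y, hfp y]
    · rw [Finset.card_image_of_injective _ hinj, hP.card_pencil, Finset.card_univ, Fintype.card_coe,
        Finset.card_erase_of_mem hp, hH.1]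
  obtain ⟨y, -, hy⟩ := Finset.mem_image.1 (himg ▸ (show l ∈ (lines L).filter (p ∈ ·) by simp [hl, hpl]) :
    l ∈ Finset.univ.image f)
  exact ⟨y, (Finset.mem_erase.1 y.2).2, (Finset.mem_erase.1 y.2).1, hy ▸ hfy y⟩

omit hP in
theorem oval_third {H l : Finset α} (hH : Oval L H) (hl : l ∈ L) {p q r : α} (hp : p ∈ H) (hq : q ∈ H)
    (hr : r ∈ H) (hpl : p ∈ l) (hql : q ∈ l) (hrl : r ∈ l) (hpq : p ≠ q) : r = p ∨ r = q := by
  by_contra hno
  push Not at hno
  have h := hH.2 l hl
  have h3 : ({p, q, r} : Finset α).card = 3 :=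
    Finset.card_eq_three.2 ⟨p, q, r, hpq, hno.1.symm, hno.2.symm, rfl⟩
  have hsub : ({p, q, r} : Finset α) ⊆ l ∩ H := by
    simp [Finset.insert_subset_iff, hp, hq, hr, hpl, hql, hrl]
  have := Finset.card_le_card hsub
  omega

theorem exists_mate {H : Finset α} (hH : Oval L H) {x a : α} (hx : x ∉ H) (ha : a ∈ H) :
    ∃ b ∈ H, b ≠ a ∧ ∃ l ∈ L, x ∈ l ∧ a ∈ l ∧ b ∈ l := by
  obtain ⟨l, hl, hxl, hal⟩ := hP.exists_line (a := x) (b := a) (fun e => hx (e ▸ ha))
  obtain ⟨b, hb, hba, hbl⟩ := hP.oval_secant hH hl ha hal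
  exact ⟨b, hb, hba, l, hl, hxl, hal, hbl⟩

end Plane

/-- The other point of `H` on the line joining `x` to `a`. -/
noncomputable def mate (L : Set (Finset α)) (H : Finset α) (x a : α) : α :=
  @Classical.epsilon α ⟨x⟩ fun b => b ∈ H ∧ b ≠ a ∧ ∃ l ∈ L, x ∈ l ∧ a ∈ l ∧ b ∈ l

namespace Plane

variable (hP : Plane α L)
include hP

theorem mate_spec {H : Finset α} (hH : Oval L H) {x a : α} (hx : x ∉ H) (ha : a ∈ H) :
    mate L H x a ∈ H ∧ mate L H x a ≠ a ∧ ∃ l ∈ L, x ∈ l ∧ a ∈ l ∧ mate L H x a ∈ l :=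
  Classical.epsilon_spec (p := fun b => b ∈ H ∧ b ≠ a ∧ ∃ l ∈ L, x ∈ l ∧ a ∈ l ∧ b ∈ l)
    (hP.exists_mate hH hx ha)

theorem mate_eq {H : Finset α} (hH : Oval L H) {x a b : α} (hx : x ∉ H) (ha : a ∈ H) (hb : b ∈ H)
    (hab : b ≠ a) {l : Finset α} (hl : l ∈ L) (hxl : x ∈ l) (hal : a ∈ l) (hbl : b ∈ l) :
    mate L H x a = b := by
  obtain ⟨h1, h2, m, hm, hxm, ham, hmm⟩ := hP.mate_spec hH hx ha
  have := hP.line_unique hl hm (fun e : x = a => hx (e ▸ ha)) hxl hal hxm ham
  subst this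
  rcases oval_third hH hl ha hb h1 hal hbl hmm hab.symm with e | e
  · exact absurd e h2
  · exact e

theorem mate_mate {H : Finset α} (hH : Oval L H) {x a : α} (hx : x ∉ H) (ha : a ∈ H) :
    mate L H x (mate L H x a) = a := by
  obtain ⟨h1, h2, l, hl, hxl, hal, hml⟩ := hP.mate_spec hH hx ha
  exact hP.mate_eq hH hx h1 ha h2.symm hl hxl hml hal

theorem mate_congr_line {H : Finset α} (hH : Oval L H) {x y a : α} (hx : x ∉ H) (hy : y ∉ H)
    (ha : a ∈ H) (he : mate L H x a = mate L H y a) :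
    ∃ l ∈ L, x ∈ l ∧ y ∈ l ∧ a ∈ l ∧ mate L H x a ∈ l := by
  obtain ⟨_, h2, l, hl, hxl, hal, hml⟩ := hP.mate_spec hH hx ha
  obtain ⟨_, _, m, hm, hym, ham, hmm⟩ := hP.mate_spec hH hy ha
  rw [← he] at hmm
  have := hP.line_unique hl hm h2.symm hal hml ham hmm
  subst this
  exact ⟨l, hl, hxl, hym, hal, hml⟩

/-- Two fixed-point-free involutions of six points agreeing on two pairs agree. -/
theorem mate_transfer {β : Type*} [Fintype β] [DecidableEq β] {L' : Set (Finset β)}
    (hP' : Plane β L') {H : Finset α} {H' : Finset β} (hH : Oval L H) (hH' : Oval L' H')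
    (σ : ↥H ≃ ↥H') {x : α} (hx : x ∉ H) {x' : β} (hx' : x' ∉ H') {a c : α} (ha : a ∈ H) (hc : c ∈ H)
    (hca : c ≠ a) (hcb : c ≠ mate L H x a)
    (ea : mate L' H' x' (σ ⟨a, ha⟩) = σ ⟨mate L H x a, (hP.mate_spec hH hx ha).1⟩)
    (ec : mate L' H' x' (σ ⟨c, hc⟩) = σ ⟨mate L H x c, (hP.mate_spec hH hx hc).1⟩) :
    ∀ e (he : e ∈ H), mate L' H' x' (σ ⟨e, he⟩) = σ ⟨mate L H x e, (hP.mate_spec hH hx he).1⟩ := by
  intro e he
  obtain ⟨hb, hba, -⟩ := hP.mate_spec hH hx ha
  obtain ⟨hd, hdc, -⟩ := hP.mate_spec hH hx hc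
  have mb := hP.mate_mate hH hx ha
  have md := hP.mate_mate hH hx hc
  obtain ⟨b, hbdef⟩ : ∃ b, mate L H x a = b := ⟨_, rfl⟩
  simp only [hbdef] at hb hba mb ea hcb
  obtain ⟨d, hddef⟩ : ∃ d, mate L H x c = d := ⟨_, rfl⟩
  simp only [hddef] at hd hdc md ec
  -- transported pairs
  have eb : mate L' H' x' (σ ⟨b, hb⟩) = σ ⟨a, ha⟩ := by
    rw [← ea]; exact hP'.mate_mate hH' hx' (σ ⟨a, ha⟩).2
  have ed : mate L' H' x' (σ ⟨d, hd⟩) = σ ⟨c, hc⟩ := by
    rw [← ec]; exact hP'.mate_mate hH' hx' (σ ⟨c, hc⟩).2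
  by_cases h1 : e = a
  · subst h1; simp only [hbdef]; exact ea
  by_cases h2 : e = b
  · subst h2; simp only [mb]; exact eb
  by_cases h3 : e = c
  · subst h3; simp only [hddef]; exact ec
  by_cases h4 : e = d
  · subst h4; simp only [md]; exact ed
  obtain ⟨hf, hfe, -⟩ := hP.mate_spec hH hx he
  have mf := hP.mate_mate hH hx he
  obtain ⟨f, hfdef⟩ : ∃ f, mate L H x e = f := ⟨_, rfl⟩
  simp only [hfdef] at hf hfe mf ⊢
  -- the six points are a b c d e f
  have hda : d ≠ a := fun h => hcb (by rw [← md, h, hbdef])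
  have hdb : d ≠ b := fun h => hca (by rw [← md, h, mb])
  have hfa : f ≠ a := fun h => h2 (by rw [← mf, h, hbdef])
  have hfb : f ≠ b := fun h => h1 (by rw [← mf, h, mb])
  have hfc : f ≠ c := fun h => h4 (by rw [← mf, h, hddef])
  have hfd : f ≠ d := fun h => h3 (by rw [← mf, h, md])
  have hsix : ({a, b, c, d, e, f} : Finset α) = H := by
    refine Finset.eq_of_subset_of_card_le (by simp [Finset.insert_subset_iff, ha, hb, hc, hd, he, hf]) ?_
    rw [hH.1, Finset.card_insert_of_notMem (by simp [hba.symm, hca.symm, hda.symm, Ne.symm h1, hfa.symm]),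
      Finset.card_insert_of_notMem (by simp [hcb.symm, hdb.symm, Ne.symm h2, hfb.symm]),
      Finset.card_insert_of_notMem (by simp [hdc.symm, Ne.symm h3, hfc.symm]),
      Finset.card_insert_of_notMem (by simp [Ne.symm h4, hfd.symm]),
      Finset.card_pair hfe.symm]
  obtain ⟨hg, hge, -⟩ := hP'.mate_spec hH' hx' (σ ⟨e, he⟩).2
  obtain ⟨g, hgeq⟩ : ∃ g : ↥H, (σ g : β) = mate L' H' x' (σ ⟨e, he⟩) :=
    ⟨σ.symm ⟨_, hg⟩, by simp⟩
  have back : mate L' H' x' (σ g) = σ ⟨e, he⟩ := by
    rw [hgeq]; exact hP'.mate_mate hH' hx' (σ ⟨e, he⟩).2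
  have hinj : ∀ u v : ↥H, ((σ u : ↥H') : β) = σ v → (u : α) = v :=
    fun u v h => congrArg Subtype.val (σ.injective (Subtype.ext h))
  have hgmem : (g : α) ∈ ({a, b, c, d, e, f} : Finset α) := hsix ▸ g.2
  simp only [Finset.mem_insert, Finset.mem_singleton] at hgmem
  rcases hgmem with h | h | h | h | h | h
  · rw [show g = ⟨a, ha⟩ from Subtype.ext h, ea] at back
    exact absurd (hinj _ _ back).symm h2
  · rw [show g = ⟨b, hb⟩ from Subtype.ext h, eb] at back
    exact absurd (hinj _ _ back).symm h1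
  · rw [show g = ⟨c, hc⟩ from Subtype.ext h, ec] at back
    exact absurd (hinj _ _ back).symm h4
  · rw [show g = ⟨d, hd⟩ from Subtype.ext h, ed] at back
    exact absurd (hinj _ _ back).symm h3
  · rw [show g = ⟨e, he⟩ from Subtype.ext h] at hgeq
    exact absurd hgeq.symm hge
  · rw [← hgeq, show g = ⟨f, hf⟩ from Subtype.ext h]

/-- Externally collinear families of five points are lines. -/
theorem five_ext {H : Finset α} (hH : Oval L H) {T : Finset α} (hT : T.card = 5)
    (hTH : ∀ x ∈ T, x ∉ H)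
    (hpair : ∀ x ∈ T, ∀ y ∈ T, x ≠ y → ∀ l ∈ L, x ∈ l → y ∈ l → ∀ h ∈ H, h ∉ l) : T ∈ L := by
  classical
  have three : ∀ x, x ∉ H → ∀ l₁ l₂ l₃ : Finset α, l₁ ∈ L → l₂ ∈ L → l₃ ∈ L → x ∈ l₁ → x ∈ l₂ →
      x ∈ l₃ → (∀ h ∈ H, h ∉ l₁) → (∀ h ∈ H, h ∉ l₂) → (∀ h ∈ H, h ∉ l₃) →
      l₁ ≠ l₂ → l₁ ≠ l₃ → l₂ ≠ l₃ → False := by
    intro x hx l₁ l₂ l₃ a1 a2 a3 b1 b2 b3 c1 c2 c3 d12 d13 d23
    set S := ((lines L).filter (x ∈ ·)) \ {l₁, l₂, l₃} with hS
    have hScard : S.card ≤ 2 := by
      rw [hS, Finset.card_sdiff_of_subset (by simp [Finset.insert_subset_iff, a1, a2, a3, b1, b2, b3]),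
        hP.card_pencil, Finset.card_eq_three.2 ⟨l₁, l₂, l₃, d12, d13, d23, rfl⟩]
    have hcov : H ⊆ S.biUnion (· ∩ H) := by
      intro h hh
      obtain ⟨l, hl, hxl, hhl⟩ := hP.exists_line (a := x) (b := h) (fun e => hx (e ▸ hh))
      refine Finset.mem_biUnion.2 ⟨l, ?_, Finset.mem_inter.2 ⟨hhl, hh⟩⟩
      simp only [hS, Finset.mem_sdiff, Finset.mem_filter, mem_lines, Finset.mem_insert,
        Finset.mem_singleton]
      refine ⟨⟨hl, hxl⟩, ?_⟩
      rintro (rfl | rfl | rfl)
      · exact c1 h hh hhl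
      · exact c2 h hh hhl
      · exact c3 h hh hhl
    have := (Finset.card_le_card hcov).trans (Finset.card_biUnion_le.trans
      (Finset.sum_le_card_nsmul S _ 2 (fun l hl => hH.2 l (by
        simp only [hS, Finset.mem_sdiff, Finset.mem_filter, mem_lines] at hl; exact hl.1.1))))
    rw [hH.1, smul_eq_mul] at this
    omega
  obtain ⟨x, hx⟩ := Finset.card_pos.1 (show 0 < T.card by omega)
  obtain ⟨a, ha, hax⟩ := Finset.exists_mem_ne (show 1 < T.card by omega) x
  obtain ⟨l₁, hl₁, hxl₁, hal₁⟩ := hP.exists_line hax.symm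
  suffices hsub : T ⊆ l₁ by
    rwa [Finset.eq_of_subset_of_card_le hsub (by rw [hT, hP.card_line hl₁])]
  intro b hb
  by_contra hbl
  have hbx : b ≠ x := fun e => hbl (e ▸ hxl₁)
  have hba : b ≠ a := fun e => hbl (e ▸ hal₁)
  obtain ⟨l₂, hl₂, hxl₂, hbl₂⟩ := hP.exists_line hbx.symm
  obtain ⟨l₃, hl₃, hal₃, hbl₃⟩ := hP.exists_line hba.symm
  obtain ⟨c, hc, hc3⟩ := Finset.exists_mem_notMem_of_card_lt_card
    (s := {x, a, b}) (t := T) (Finset.card_le_three.trans_lt (by omega))
  simp only [Finset.mem_insert, Finset.mem_singleton, not_or] at hc3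
  obtain ⟨hcx, hca, hcb⟩ := hc3
  obtain ⟨l₄, hl₄, hxl₄, hcl₄⟩ := hP.exists_line (Ne.symm hcx)
  have e1 := hpair x hx a ha hax.symm l₁ hl₁ hxl₁ hal₁
  have e2 := hpair x hx b hb hbx.symm l₂ hl₂ hxl₂ hbl₂
  have e3 := hpair a ha b hb hba.symm l₃ hl₃ hal₃ hbl₃
  have e4 := hpair x hx c hc (Ne.symm hcx) l₄ hl₄ hxl₄ hcl₄
  have h12 : l₁ ≠ l₂ := fun e => hbl (e ▸ hbl₂)
  have h13 : l₁ ≠ l₃ := fun e => hbl (e ▸ hbl₃)
  have h23 : l₂ ≠ l₃ := fun e => hbl
    (hP.line_unique hl₁ hl₂ hax.symm hxl₁ hal₁ hxl₂ (e ▸ hal₃) ▸ hbl₂)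
  by_cases h14 : l₄ = l₁
  · obtain ⟨l₅, hl₅, hbl₅, hcl₅⟩ := hP.exists_line (Ne.symm hcb)
    have e5 := hpair b hb c hc (Ne.symm hcb) l₅ hl₅ hbl₅ hcl₅
    refine three b (hTH b hb) l₂ l₃ l₅ hl₂ hl₃ hl₅ hbl₂ hbl₃ hbl₅ e2 e3 e5 h23 ?_ ?_
    · intro e
      have := hP.line_unique hl₁ hl₂ (Ne.symm hcx) hxl₁ (h14 ▸ hcl₄) hxl₂ (e ▸ hcl₅)
      exact h12 this
    · intro e
      have := hP.line_unique hl₁ hl₃ (Ne.symm hca) hal₁ (h14 ▸ hcl₄) hal₃ (e ▸ hcl₅)
      exact h13 this
  by_cases h24 : l₄ = l₂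
  · obtain ⟨l₅, hl₅, hal₅, hcl₅⟩ := hP.exists_line (Ne.symm hca)
    have e5 := hpair a ha c hc (Ne.symm hca) l₅ hl₅ hal₅ hcl₅
    refine three a (hTH a ha) l₁ l₃ l₅ hl₁ hl₃ hl₅ hal₁ hal₃ hal₅ e1 e3 e5 h13 ?_ ?_
    · intro e
      have := hP.line_unique hl₁ hl₂ (Ne.symm hcx) hxl₁ (e ▸ hcl₅) hxl₂ (h24 ▸ hcl₄)
      exact h12 this
    · intro e
      have := hP.line_unique hl₂ hl₃ (Ne.symm hcb) hbl₂ (h24 ▸ hcl₄) hbl₃ (e ▸ hcl₅)
      exact h23 this
  exact three x (hTH x hx) l₁ l₂ l₄ hl₁ hl₂ hl₄ hxl₁ hxl₂ hxl₄ e1 e2 e4 h12 (Ne.symm h14) (Ne.symm h24)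

/-- A bijection of hyperovals extends to an isomorphism of the planes. -/
theorem extend {β : Type*} [Fintype β] [DecidableEq β] {L' : Set (Finset β)} (hP' : Plane β L')
    {H : Finset α} {H' : Finset β} (hH : Oval L H) (hH' : Oval L' H') (σ : ↥H ≃ ↥H') :
    ∃ e : α ≃ β, (fun b => b.image e) '' L = L' ∧ ∀ p : ↥H, e p = σ p := by
  classical
  have hmem : ∀ x (_hx : x ∉ H), ∃ x', x' ∉ H' ∧ ∀ e (he : e ∈ H) (hm : mate L H x e ∈ H),
      mate L' H' x' (σ ⟨e, he⟩) = σ ⟨mate L H x e, hm⟩ := by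
    intro x hx
    obtain ⟨a, ha⟩ := Finset.card_pos.1 (show 0 < H.card by rw [hH.1]; norm_num)
    obtain ⟨hb, hba, -⟩ := hP.mate_spec hH hx ha
    obtain ⟨c, hc, hc2⟩ := Finset.exists_mem_notMem_of_card_lt_card
      (s := {a, mate L H x a}) (t := H) (Finset.card_le_two.trans_lt (by rw [hH.1]; norm_num))
    simp only [Finset.mem_insert, Finset.mem_singleton, not_or] at hc2
    obtain ⟨hd, hdc, -⟩ := hP.mate_spec hH hx hc
    have hda : mate L H x c ≠ a := fun h => hc2.2 (by rw [← h, hP.mate_mate hH hx hc])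
    have hab' : (σ ⟨a, ha⟩ : β) ≠ σ ⟨mate L H x a, hb⟩ := fun h =>
      hba (congrArg Subtype.val (σ.injective (Subtype.ext h))).symm
    have hcd' : (σ ⟨c, hc⟩ : β) ≠ σ ⟨mate L H x c, hd⟩ := fun h =>
      hdc (congrArg Subtype.val (σ.injective (Subtype.ext h))).symm
    obtain ⟨l, hl, hal, hbl⟩ := hP'.exists_line hab'
    obtain ⟨m, hm, hcm, hdm⟩ := hP'.exists_line hcd'
    have hlm : l ≠ m := fun e => by
      rcases oval_third hH' hl (σ ⟨a, ha⟩).2 (σ ⟨mate L H x a, hb⟩).2 (σ ⟨c, hc⟩).2 hal hbl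
        (e ▸ hcm) hab' with h | h
      · exact hc2.1 (congrArg Subtype.val (σ.injective (Subtype.ext h)))
      · exact hc2.2 (congrArg Subtype.val (σ.injective (Subtype.ext h)))
    obtain ⟨x', hxl, hxm⟩ := hP'.meet hl hm
    have hx' : x' ∉ H' := by
      intro hxH
      have inj : ∀ (u v : ↥H), (σ u : β) = σ v → (u : α) = v :=
        fun u v h => congrArg Subtype.val (σ.injective (Subtype.ext h))
      rcases oval_third hH' hl (σ ⟨a, ha⟩).2 (σ ⟨mate L H x a, hb⟩).2 hxH hal hbl hxl hab' with h | h <;>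
        rcases oval_third hH' hm (σ ⟨c, hc⟩).2 (σ ⟨mate L H x c, hd⟩).2 hxH hcm hdm hxm hcd' with
          h' | h'
      · exact hc2.1 (inj _ _ (h'.symm.trans h))
      · exact hda (inj _ _ (h'.symm.trans h))
      · exact hc2.2 (inj _ _ (h'.symm.trans h))
      · have hbd : mate L H x c = mate L H x a := inj _ _ (h'.symm.trans h)
        have h1 := hP.mate_mate hH hx hc
        rw [hbd, hP.mate_mate hH hx ha] at h1
        exact hc2.1 h1.symm
    refine ⟨x', hx', fun e he hm' => hP.mate_transfer hP' hH hH' σ hx hx' ha hc hc2.1 hc2.2 ?_ ?_ e he⟩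
    · exact hP'.mate_eq hH' hx' (σ ⟨a, ha⟩).2 (σ ⟨_, hb⟩).2 hab'.symm hl hxl hal hbl
    · exact hP'.mate_eq hH' hx' (σ ⟨c, hc⟩).2 (σ ⟨_, hd⟩).2 hcd'.symm hm hxm hcm hdm
  choose F hF hFm using hmem
  set ef : α → β := fun x => if h : x ∈ H then (σ ⟨x, h⟩ : β) else F x h with hef
  have efH : ∀ x (h : x ∈ H), ef x = σ ⟨x, h⟩ := fun x h => dif_pos h
  have efN : ∀ x (h : x ∉ H), ef x = F x h := fun x h => dif_neg h
  have hinjF : ∀ x y (hx : x ∉ H) (hy : y ∉ H), F x hx = F y hy → x = y := by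
    intro x y hx hy h
    by_contra hne
    obtain ⟨a, ha⟩ := Finset.card_pos.1 (show 0 < H.card by rw [hH.1]; norm_num)
    have same : ∀ e, e ∈ H → mate L H x e = mate L H y e := by
      intro e he
      have h1 := hFm x hx e he (hP.mate_spec hH hx he).1
      rw [h, hFm y hy e he (hP.mate_spec hH hy he).1] at h1
      exact (congrArg Subtype.val (σ.injective (Subtype.ext h1))).symm
    obtain ⟨c, hc, hc2⟩ := Finset.exists_mem_notMem_of_card_lt_card
      (s := {a, mate L H x a}) (t := H) (Finset.card_le_two.trans_lt (by rw [hH.1]; norm_num))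
    simp only [Finset.mem_insert, Finset.mem_singleton, not_or] at hc2
    obtain ⟨l, hl, hxl, hyl, hal, hbl⟩ := hP.mate_congr_line hH hx hy ha (same a ha)
    obtain ⟨m, hm, hxm, hym, hcm, -⟩ := hP.mate_congr_line hH hx hy hc (same c hc)
    have hlm := hP.line_unique hl hm hne hxl hyl hxm hym
    rcases oval_third hH hl ha (hP.mate_spec hH hx ha).1 hc hal hbl (hlm ▸ hcm)
      (hP.mate_spec hH hx ha).2.1.symm with e | e
    · exact hc2.1 e
    · exact hc2.2 e
  have hinj : Function.Injective ef := by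
    intro x y h
    by_cases hx : x ∈ H <;> by_cases hy : y ∈ H
    · rw [efH x hx, efH y hy] at h
      exact congrArg Subtype.val (σ.injective (Subtype.ext h))
    · rw [efH x hx, efN y hy] at h
      exact absurd (h ▸ (σ ⟨x, hx⟩).2) (hF y hy)
    · rw [efN x hx, efH y hy] at h
      exact absurd (h ▸ (σ ⟨y, hy⟩).2) (hF x hx)
    · rw [efN x hx, efN y hy] at h
      exact hinjF x y hx hy h
  have hbij : Function.Bijective ef :=
    (Fintype.bijective_iff_injective_and_card _).2 ⟨hinj, by rw [hP.card_pts, hP'.card_pts]⟩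
  refine ⟨Equiv.ofBijective ef hbij, ?_, fun p => efH p p.2⟩
  show (fun b => b.image ef) '' L = L'
  have hline : ∀ l ∈ L, l.image ef ∈ L' := by
    intro l hl
    have hcard : (l.image ef).card = 5 := by
      rw [Finset.card_image_of_injective _ hinj, hP.card_line hl]
    by_cases hmeet : ∃ a ∈ H, a ∈ l
    · obtain ⟨a, ha, hal⟩ := hmeet
      obtain ⟨b, hb, hba, hbl⟩ := hP.oval_secant hH hl ha hal
      have hab' : (σ ⟨a, ha⟩ : β) ≠ σ ⟨b, hb⟩ := fun h =>
        hba (congrArg Subtype.val (σ.injective (Subtype.ext h))).symm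
      obtain ⟨m, hm, ham, hbm⟩ := hP'.exists_line hab'
      have hsub : l.image ef ⊆ m := by
        intro z hz
        obtain ⟨x, hxl, rfl⟩ := Finset.mem_image.1 hz
        by_cases hx : x ∈ H
        · rcases oval_third hH hl ha hb hx hal hbl hxl hba.symm with rfl | rfl
          · rw [efH x hx]; exact ham
          · rw [efH x hx]; exact hbm
        · rw [efN x hx]
          have h1 := hFm x hx a ha (hP.mate_spec hH hx ha).1
          have h2 : mate L H x a = b := hP.mate_eq hH hx ha hb hba hl hxl hal hbl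
          obtain ⟨-, -, m', hm', hxm', ham', hbm'⟩ := hP'.mate_spec hH' (hF x hx) (σ ⟨a, ha⟩).2
          rw [h1] at hbm'
          simp only [h2] at hbm'
          rwa [hP'.line_unique hm hm' hab' ham hbm ham' hbm']
      rwa [Finset.eq_of_subset_of_card_le hsub (by rw [hcard, hP'.card_line hm])]
    · push Not at hmeet
      refine hP'.five_ext hH' hcard ?_ ?_
      · intro z hz
        obtain ⟨x, hxl, rfl⟩ := Finset.mem_image.1 hz
        rw [efN x fun h => hmeet x h hxl]
        exact hF _ _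
      · intro u hu v hv huv m hm hum hvm h hh hhm
        obtain ⟨x, hxl, rfl⟩ := Finset.mem_image.1 hu
        obtain ⟨y, hyl, rfl⟩ := Finset.mem_image.1 hv
        have hx : x ∉ H := fun h => hmeet x h hxl
        have hy : y ∉ H := fun h => hmeet y h hyl
        rw [efN x hx] at hum
        rw [efN y hy] at hvm
        obtain ⟨a, rfl⟩ : ∃ a : ↥H, (σ a : β) = h := ⟨σ.symm ⟨h, hh⟩, by simp⟩
        obtain ⟨q, hq, hqa, hqm⟩ := hP'.oval_secant hH' hm (σ a).2 hhm
        have e1 := hFm x hx a a.2 (hP.mate_spec hH hx a.2).1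
        have e2 := hFm y hy a a.2 (hP.mate_spec hH hy a.2).1
        rw [hP'.mate_eq hH' (hF x hx) (σ a).2 hq hqa hm hum hhm hqm] at e1
        rw [hP'.mate_eq hH' (hF y hy) (σ a).2 hq hqa hm hvm hhm hqm, e1] at e2
        have e3 : mate L H x a = mate L H y a :=
          congrArg Subtype.val (σ.injective (Subtype.ext e2))
        obtain ⟨k, hk, hxk, hyk, hak, -⟩ := hP.mate_congr_line hH hx hy a.2 e3
        have hxy : x ≠ y := fun e => huv (by rw [e])
        exact hmeet a a.2 (hP.line_unique hl hk hxy hxl hyl hxk hyk ▸ hak)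
  refine Set.eq_of_subset_of_ncard_le (by rintro _ ⟨l, hl, rfl⟩; exact hline l hl) ?_ (Set.toFinite _)
  rw [Set.ncard_image_of_injective _ (Finset.image_injective hinj),
    Set.ncard_eq_toFinset_card L', Set.ncard_eq_toFinset_card L]
  exact (hP'.card_lines.trans hP.card_lines.symm).le

/-- An automorphism fixing a hyperoval pointwise is the identity. -/
theorem eq_id_of_fix {H : Finset α} (hH : Oval L H) {e : α → α} (he : ∀ l ∈ L, l.image e ∈ L)
    (hinj : Function.Injective e) (hfix : ∀ h ∈ H, e h = h) (x : α) : e x = x := by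
  by_cases hx : x ∈ H
  · exact hfix x hx
  obtain ⟨a, ha⟩ := Finset.card_pos.1 (show 0 < H.card by rw [hH.1]; norm_num)
  obtain ⟨hb, hba, l, hl, hxl, hal, hbl⟩ := hP.mate_spec hH hx ha
  obtain ⟨c, hc, hc2⟩ := Finset.exists_mem_notMem_of_card_lt_card
    (s := {a, mate L H x a}) (t := H) (Finset.card_le_two.trans_lt (by rw [hH.1]; norm_num))
  simp only [Finset.mem_insert, Finset.mem_singleton, not_or] at hc2
  obtain ⟨hd, hdc, m, hm, hxm, hcm, hdm⟩ := hP.mate_spec hH hx hc
  have img : ∀ k ∈ L, ∀ p ∈ H, ∀ q ∈ H, p ≠ q → p ∈ k → q ∈ k → k.image e = k :=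
    fun k hk p hp q hq hpq hpk hqk => hP.line_unique (he k hk) hk hpq
      (Finset.mem_image.2 ⟨p, hpk, hfix p hp⟩) (Finset.mem_image.2 ⟨q, hqk, hfix q hq⟩) hpk hqk
  have h1 : e x ∈ l := img l hl a ha _ hb hba.symm hal hbl ▸ Finset.mem_image_of_mem e hxl
  have h2 : e x ∈ m := img m hm c hc _ hd hdc.symm hcm hdm ▸ Finset.mem_image_of_mem e hxm
  refine hP.point_unique hl hm ?_ h1 h2 hxl hxm
  intro heq
  rcases oval_third hH hl ha hb hc hal hbl (heq ▸ hcm) hba.symm with e' | e'
  · exact hc2.1 e'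
  · exact hc2.2 e'

/-! ### Four-arcs -/

theorem free_spec {S : Finset α} (hS : S.card = 4) (harc : Arc L S) {A : α} (hA : A ∈ S) :
    ∃ P₁ P₂, P₁ ≠ P₂ ∧ (∀ x, Free L S x ↔ x = P₁ ∨ x = P₂) ∧
      ∀ l ∈ L, A ∈ l → P₁ ∈ l → P₂ ∈ l → False := by
  classical
  have two : ∀ {k : Finset α} {p q : α}, p ∈ S → q ∈ S → p ≠ q → k ∈ L → p ∈ k → q ∈ k →
      ∀ r ∈ S, r ∈ k → r = p ∨ r = q := by
    intro k p q hp hq hpq hk hpk hqk r hr hrk
    by_contra hno
    push Not at hno
    have h3 : ({p, q, r} : Finset α).card = 3 :=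
      Finset.card_eq_three.2 ⟨p, q, r, hpq, hno.1.symm, hno.2.symm, rfl⟩
    have hsub : ({p, q, r} : Finset α) ⊆ k ∩ S := by
      simp [Finset.insert_subset_iff, hp, hq, hr, hpk, hqk, hrk]
    have := harc k hk
    have := Finset.card_le_card hsub
    omega
  -- secants through A
  choose s hs hsA hst using fun t : (S.erase A : Finset α) => hP.exists_line (a := A) (b := (t : α))
    (fun e => (Finset.mem_erase.1 t.2).1 e.symm)
  have hsinj : Function.Injective s := by
    intro t u h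
    apply Subtype.ext
    rcases two hA (Finset.mem_erase.1 t.2).2 (Finset.mem_erase.1 t.2).1.symm (hs t) (hsA t) (hst t)
      u (Finset.mem_erase.1 u.2).2 (h ▸ hst u) with e | e
    · exact absurd e (Finset.mem_erase.1 u.2).1
    · exact e.symm
  set R := ((lines L).filter (A ∈ ·)) \ Finset.univ.image s with hR
  have hRcard : R.card = 2 := by
    rw [hR, Finset.card_sdiff_of_subset (by
      intro k hk; obtain ⟨t, -, rfl⟩ := Finset.mem_image.1 hk; simp [hs t, hsA t]),
      hP.card_pencil, Finset.card_image_of_injective _ hsinj, Finset.card_univ, Fintype.card_coe,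
      Finset.card_erase_of_mem hA, hS]
  have hRmem : ∀ l, l ∈ R ↔ l ∈ L ∧ A ∈ l ∧ ∀ r ∈ S, r ∈ l → r = A := by
    intro l
    simp only [hR, Finset.mem_sdiff, Finset.mem_filter, mem_lines, Finset.mem_image, Finset.mem_univ,
      true_and]
    constructor
    · rintro ⟨⟨hl, hAl⟩, hno⟩
      refine ⟨hl, hAl, fun r hr hrl => ?_⟩
      by_contra hrA
      exact hno ⟨⟨r, Finset.mem_erase.2 ⟨hrA, hr⟩⟩,
        hP.line_unique (hs _) hl (Ne.symm hrA) (hsA _) (hst _) hAl hrl⟩
    · rintro ⟨hl, hAl, hno⟩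
      refine ⟨⟨hl, hAl⟩, ?_⟩
      rintro ⟨t, rfl⟩
      exact (Finset.mem_erase.1 t.2).1 (hno t (Finset.mem_erase.1 t.2).2 (hst t))
  have hfree_ne : ∀ x, Free L S x → x ∉ S := by
    intro x hx hxS
    obtain ⟨r, hr, hrx⟩ := Finset.exists_mem_ne (show 1 < S.card by omega) x
    obtain ⟨k, hk, hxk, hrk⟩ := hP.exists_line hrx.symm
    have := hx k hk hxk
    have h2 : ({x, r} : Finset α) ⊆ k ∩ S := by simp [Finset.insert_subset_iff, hxk, hrk, hxS, hr]
    have := Finset.card_le_card h2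
    rw [Finset.card_pair hrx.symm] at this
    omega
  have hfree_R : ∀ x, Free L S x → ∃ l ∈ R, x ∈ l := by
    intro x hx
    obtain ⟨l, hl, hAl, hxl⟩ := hP.exists_line (a := A) (b := x) (fun e => hfree_ne x hx (e ▸ hA))
    refine ⟨l, (hRmem l).2 ⟨hl, hAl, fun r hr hrl => ?_⟩, hxl⟩
    exact Finset.card_le_one.1 (hx l hl hxl) r (Finset.mem_inter.2 ⟨hrl, hr⟩) A
      (Finset.mem_inter.2 ⟨hAl, hA⟩)
  -- one free point on each line of R
  have hone : ∀ l ∈ R, ∃ P, ∀ x, (x ∈ l ∧ Free L S x) ↔ x = P := by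
    intro l hl
    obtain ⟨hlL, hAl, hlS⟩ := (hRmem l).1 hl
    -- the side opposite to t
    have hside : ∀ t : (S.erase A : Finset α), ∃ k ∈ L, A ∉ k ∧ (t : α) ∉ k ∧
        ∀ r ∈ S, r ≠ A → r ≠ t → r ∈ k := by
      intro t
      obtain ⟨p, q, hpq, hT⟩ := Finset.card_eq_two.1
        (show ((S.erase A).erase t).card = 2 by
          rw [Finset.card_erase_of_mem t.2, Finset.card_erase_of_mem hA, hS])
      have hp : p ∈ (S.erase A).erase (t : α) := by rw [hT]; simp
      have hq : q ∈ (S.erase A).erase (t : α) := by rw [hT]; simp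
      simp only [Finset.mem_erase] at hp hq
      obtain ⟨k, hk, hpk, hqk⟩ := hP.exists_line hpq
      refine ⟨k, hk, fun h => ?_, fun h => ?_, fun r hr hrA hrt => ?_⟩
      · rcases two hp.2.2 hq.2.2 hpq hk hpk hqk A hA h with e | e
        · exact hp.2.1 e.symm
        · exact hq.2.1 e.symm
      · rcases two hp.2.2 hq.2.2 hpq hk hpk hqk t (Finset.mem_erase.1 t.2).2 h with e | e
        · exact hp.1 e.symm
        · exact hq.1 e.symm
      · have : r ∈ ({p, q} : Finset α) := hT ▸ Finset.mem_erase.2 ⟨hrt, Finset.mem_erase.2 ⟨hrA, hr⟩⟩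
        simp only [Finset.mem_insert, Finset.mem_singleton] at this
        rcases this with rfl | rfl
        · exact hpk
        · exact hqk
    choose k hk hkA hkt hkS using hside
    choose g hgl hgk using fun t => hP.meet hlL (hk t)
    have hgA : ∀ t, g t ≠ A := fun t e => hkA t (e ▸ hgk t)
    have hgS : ∀ t, g t ∉ S := fun t h => hgA t (hlS _ h (hgl t))
    have hginj : Function.Injective g := by
      intro t u h
      by_contra hne
      obtain ⟨r, hr, hrtu⟩ := Finset.exists_mem_notMem_of_card_lt_card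
        (s := {A, (t : α), (u : α)}) (t := S) (Finset.card_le_three.trans_lt (by omega))
      simp only [Finset.mem_insert, Finset.mem_singleton, not_or] at hrtu
      have hne2 : k t ≠ k u := fun e => hkt u (e ▸ hkS t u (Finset.mem_erase.1 u.2).2
        (Finset.mem_erase.1 u.2).1 (fun e' => hne (Subtype.ext e'.symm)))
      exact hgS t (hP.point_unique (hk t) (hk u) hne2 (hkS t r hr hrtu.1 hrtu.2.1)
        (hkS u r hr hrtu.1 hrtu.2.2) (hgk t) (h ▸ hgk u) ▸ hr)
    have hnf : (l.erase A).filter (fun x => ¬ Free L S x) = Finset.univ.image g := by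
      ext x
      simp only [Finset.mem_filter, Finset.mem_erase, Finset.mem_image, Finset.mem_univ, true_and]
      constructor
      · rintro ⟨⟨hxA, hxl⟩, hnfree⟩
        simp only [Free, not_forall] at hnfree
        obtain ⟨m, hm, hxm, hcard⟩ := hnfree
        obtain ⟨p, hp, q, hq, hpq⟩ := Finset.one_lt_card.1 (not_le.1 hcard)
        rw [Finset.mem_inter] at hp hq
        have hAm : A ∉ m := fun h => by
          have := hP.line_unique hlL hm hxA hxl hAl hxm h
          subst this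
          exact hpq ((hlS p hp.2 hp.1).trans (hlS q hq.2 hq.1).symm)
        obtain ⟨t, ht, htpq⟩ := Finset.exists_mem_notMem_of_card_lt_card
          (s := {A, p, q}) (t := S) (Finset.card_le_three.trans_lt (by omega))
        simp only [Finset.mem_insert, Finset.mem_singleton, not_or] at htpq
        refine ⟨⟨t, Finset.mem_erase.2 ⟨htpq.1, ht⟩⟩, ?_⟩
        have hkm : k ⟨t, Finset.mem_erase.2 ⟨htpq.1, ht⟩⟩ = m :=
          hP.line_unique (hk _) hm hpq (hkS _ p hp.2 (fun e => hAm (e ▸ hp.1)) (Ne.symm htpq.2.1))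
            (hkS _ q hq.2 (fun e => hAm (e ▸ hq.1)) (Ne.symm htpq.2.2)) hp.1 hq.1
        have hlk : l ≠ m := fun e => hAm (e ▸ hAl)
        exact hP.point_unique hlL hm hlk (hgl _) (hkm ▸ hgk _) hxl hxm
      · rintro ⟨t, rfl⟩
        refine ⟨⟨hgA t, hgl t⟩, fun hf => ?_⟩
        have h1 := hf (k t) (hk t) (hgk t)
        have h2 : (S.erase A).erase (t : α) ⊆ k t ∩ S := by
          intro r hr
          simp only [Finset.mem_erase] at hr
          exact Finset.mem_inter.2 ⟨hkS t r hr.2.2 hr.2.1 hr.1, hr.2.2⟩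
        have := Finset.card_le_card h2
        rw [Finset.card_erase_of_mem t.2, Finset.card_erase_of_mem hA, hS] at this
        omega
    have hf1 : ((l.erase A).filter (Free L S)).card = 1 := by
      have h := Finset.card_filter_add_card_filter_not (s := l.erase A) (Free L S)
      rw [hnf, Finset.card_image_of_injective _ hginj, Finset.card_univ, Fintype.card_coe,
        Finset.card_erase_of_mem hA, hS, Finset.card_erase_of_mem hAl, hP.card_line hlL] at h
      omega
    obtain ⟨P, hPeq⟩ := Finset.card_eq_one.1 hf1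
    refine ⟨P, fun x => ?_⟩
    rw [← Finset.mem_singleton, ← hPeq, Finset.mem_filter, Finset.mem_erase]
    exact ⟨fun h => ⟨⟨fun e => hfree_ne x h.2 (e ▸ hA), h.1⟩, h.2⟩, fun h => ⟨h.1.2, h.2⟩⟩
  obtain ⟨l₁, l₂, hl12, hReq⟩ := Finset.card_eq_two.1 hRcard
  have m1 : l₁ ∈ R := by rw [hReq]; simp
  have m2 : l₂ ∈ R := by rw [hReq]; simp
  obtain ⟨P₁, hP1⟩ := hone l₁ m1
  obtain ⟨P₂, hP2⟩ := hone l₂ m2
  obtain ⟨hP1l, hP1f⟩ := (hP1 P₁).2 rfl
  obtain ⟨hP2l, hP2f⟩ := (hP2 P₂).2 rfl
  obtain ⟨h1L, hA1, -⟩ := (hRmem l₁).1 m1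
  obtain ⟨h2L, hA2, -⟩ := (hRmem l₂).1 m2
  have hne1 : A ≠ P₁ := fun e => hfree_ne _ hP1f (e ▸ hA)
  have hne2 : A ≠ P₂ := fun e => hfree_ne _ hP2f (e ▸ hA)
  refine ⟨P₁, P₂, fun e => ?_, fun x => ⟨fun hx => ?_, ?_⟩, fun l hl hAl h1 h2 => ?_⟩
  · exact hl12 (hP.line_unique h1L h2L hne1 hA1 hP1l hA2 (e ▸ hP2l))
  · obtain ⟨l, hl, hxl⟩ := hfree_R x hx
    rw [hReq, Finset.mem_insert, Finset.mem_singleton] at hl
    rcases hl with rfl | rfl
    · exact Or.inl ((hP1 x).1 ⟨hxl, hx⟩)
    · exact Or.inr ((hP2 x).1 ⟨hxl, hx⟩)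
  · rintro (rfl | rfl)
    · exact hP1f
    · exact hP2f
  · exact hl12 ((hP.line_unique h1L hl hne1 hA1 hP1l hAl h1).trans
      (hP.line_unique h2L hl hne2 hA2 hP2l hAl h2).symm)

theorem existsUnique_oval {S : Finset α} (hS : S.card = 4) (harc : Arc L S) :
    ∃! H, Oval L H ∧ S ⊆ H := by
  classical
  obtain ⟨A, hA⟩ := Finset.card_pos.1 (show 0 < S.card by omega)
  obtain ⟨P, Q, hne, hfree, -⟩ := hP.free_spec hS harc hA
  have noline : ∀ B ∈ S, ∀ l ∈ L, B ∈ l → P ∈ l → Q ∈ l → False := by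
    intro B hB l hl hBl hPl hQl
    obtain ⟨P', Q', hne', hfree', hno'⟩ := hP.free_spec hS harc hB
    rcases (hfree' P).1 ((hfree P).2 (Or.inl rfl)) with rfl | rfl <;>
      rcases (hfree' Q).1 ((hfree Q).2 (Or.inr rfl)) with rfl | rfl
    · exact hne rfl
    · exact hno' l hl hBl hPl hQl
    · exact hno' l hl hBl hQl hPl
    · exact hne rfl
  have notS : ∀ x, Free L S x → x ∉ S := by
    intro x hx hxS
    obtain ⟨r, hr, hrx⟩ := Finset.exists_mem_ne (show 1 < S.card by omega) x
    obtain ⟨k, hk, hxk, hrk⟩ := hP.exists_line hrx.symm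
    have h2 : ({x, r} : Finset α) ⊆ k ∩ S := by simp [Finset.insert_subset_iff, hxk, hrk, hxS, hr]
    have := (Finset.card_le_card h2).trans (hx k hk hxk)
    rw [Finset.card_pair hrx.symm] at this
    omega
  have hPS : P ∉ S := notS P ((hfree P).2 (Or.inl rfl))
  have hQS : Q ∉ S := notS Q ((hfree Q).2 (Or.inr rfl))
  refine ⟨insert P (insert Q S), ⟨⟨?_, fun l hl => ?_⟩,
    (Finset.subset_insert _ _).trans (Finset.subset_insert _ _)⟩, fun H ⟨hH, hSH⟩ => ?_⟩
  · rw [Finset.card_insert_of_notMem (by simp [hne, hPS]), Finset.card_insert_of_notMem hQS, hS]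
  · by_cases hPl : P ∈ l <;> by_cases hQl : Q ∈ l
    · have hdis : l ∩ S = ∅ := Finset.eq_empty_of_forall_notMem fun B hB =>
        noline B (Finset.mem_inter.1 hB).2 l hl (Finset.mem_inter.1 hB).1 hPl hQl
      rw [Finset.inter_insert_of_mem hPl, Finset.inter_insert_of_mem hQl, hdis]
      exact (Finset.card_insert_le _ _).trans (by simp)
    · rw [Finset.inter_insert_of_mem hPl, Finset.inter_insert_of_notMem hQl]
      exact (Finset.card_insert_le _ _).trans (Nat.succ_le_succ ((hfree P).2 (Or.inl rfl) l hl hPl))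
    · rw [Finset.inter_insert_of_notMem hPl, Finset.inter_insert_of_mem hQl]
      exact (Finset.card_insert_le _ _).trans (Nat.succ_le_succ ((hfree Q).2 (Or.inr rfl) l hl hQl))
    · rw [Finset.inter_insert_of_notMem hPl, Finset.inter_insert_of_notMem hQl]
      exact harc l hl
  · have hsub : H \ S ⊆ {P, Q} := by
      intro x hx
      rw [Finset.mem_sdiff] at hx
      simp only [Finset.mem_insert, Finset.mem_singleton]
      refine (hfree x).1 fun l hl hxl => ?_
      have h1 : insert x (l ∩ S) ⊆ l ∩ H := Finset.insert_subset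
        (Finset.mem_inter.2 ⟨hxl, hx.1⟩) (Finset.inter_subset_inter_left hSH)
      have := (Finset.card_le_card h1).trans (hH.2 l hl)
      rw [Finset.card_insert_of_notMem (fun h => hx.2 (Finset.mem_inter.1 h).2)] at this
      omega
    have hcard : (H \ S).card = 2 := by rw [Finset.card_sdiff_of_subset hSH, hH.1, hS]
    have heq : H \ S = {P, Q} := Finset.eq_of_subset_of_card_le hsub (by rw [hcard, Finset.card_pair hne])
    rw [← Finset.sdiff_union_of_subset hSH, heq]
    ext z
    simp only [Finset.mem_union, Finset.mem_insert, Finset.mem_singleton]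
    tauto

/-! ### Counts -/

theorem arc_of_card_le_two {S : Finset α} (h : S.card ≤ 2) : Arc L S := fun _ _ =>
  (Finset.card_le_card Finset.inter_subset_right).trans h

open scoped Classical in
/-- Number of arcs of a given size, step by step. -/
theorem arcs_step (k n : ℕ) (hk : 2 ≤ k)
    (hfree : ∀ S : Finset α, S.card = k → Arc L S → (Finset.univ.filter (Free L S)).card = n) :
    (((Finset.univ : Finset α).powersetCard (k + 1)).filter (Arc L)).card * (k + 1) =
      (((Finset.univ : Finset α).powersetCard k).filter (Arc L)).card * n := by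
  set A := ((Finset.univ : Finset α).powersetCard (k + 1)).filter (Arc L)
  set B := ((Finset.univ : Finset α).powersetCard k).filter (Arc L)
  refine Finset.card_mul_eq_card_mul (fun T S : Finset α => S ⊆ T) ?_ ?_
  · intro T hT
    simp only [A, Finset.mem_filter, Finset.mem_powersetCard] at hT
    have : B.bipartiteAbove (fun T S : Finset α => S ⊆ T) T = T.powersetCard k := by
      ext S
      simp only [B, Finset.mem_bipartiteAbove, Finset.mem_filter, Finset.mem_powersetCard]
      exact ⟨fun h => ⟨h.2, h.1.1.2⟩,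
        fun h => ⟨⟨⟨Finset.subset_univ _, h.2⟩, hT.2.mono h.1⟩, h.1⟩⟩
    rw [this, Finset.card_powersetCard, hT.1.2, Nat.choose_succ_self_right]
  · intro S hS
    simp only [B, Finset.mem_filter, Finset.mem_powersetCard] at hS
    have hnot : ∀ x, Free L S x → x ∉ S := by
      intro x hx hxS
      obtain ⟨r, hr, hrx⟩ := Finset.exists_mem_ne (show 1 < S.card by omega) x
      obtain ⟨m, hm, hxm, hrm⟩ := hP.exists_line hrx.symm
      have h2 : ({x, r} : Finset α) ⊆ m ∩ S := by simp [Finset.insert_subset_iff, hxm, hrm, hxS, hr]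
      have := (Finset.card_le_card h2).trans (hx m hm hxm)
      rw [Finset.card_pair hrx.symm] at this
      omega
    rw [← hfree S hS.1.2 hS.2]
    refine (Finset.card_nbij (fun x => insert x S) ?_ ?_ ?_).symm
    · intro x hx
      simp only [Finset.coe_filter, Finset.mem_univ, true_and, Set.mem_setOf_eq] at hx
      simp only [A, Finset.coe_bipartiteBelow, Finset.mem_filter, Finset.mem_powersetCard,
        Set.mem_setOf_eq]
      refine ⟨⟨⟨Finset.subset_univ _, by rw [Finset.card_insert_of_notMem (hnot x hx), hS.1.2]⟩,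
        fun l hl => ?_⟩, Finset.subset_insert _ _⟩
      by_cases hxl : x ∈ l
      · rw [Finset.inter_insert_of_mem hxl]
        exact (Finset.card_insert_le _ _).trans (Nat.succ_le_succ (hx l hl hxl))
      · rw [Finset.inter_insert_of_notMem hxl]; exact hS.2 l hl
    · intro x hx y hy h
      simp only [Finset.coe_filter, Finset.mem_univ, true_and, Set.mem_setOf_eq] at hx hy
      have h' : insert x S = insert y S := h
      have hxy : x ∈ insert y S := h' ▸ Finset.mem_insert_self x S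
      exact (Finset.mem_insert.1 hxy).resolve_right (hnot x hx)
    · intro T hT
      simp only [A, Finset.coe_bipartiteBelow, Finset.mem_filter, Finset.mem_powersetCard,
        Set.mem_setOf_eq] at hT
      obtain ⟨x, hx⟩ := Finset.card_eq_one.1
        (show (T \ S).card = 1 by rw [Finset.card_sdiff_of_subset hT.2, hT.1.1.2, hS.1.2]; omega)
      have hxT : x ∈ T \ S := by rw [hx]; simp
      rw [Finset.mem_sdiff] at hxT
      have hins : insert x S = T := by
        rw [← Finset.sdiff_union_of_subset hT.2, hx, ← Finset.insert_eq]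
      refine ⟨x, ?_, hins⟩
      simp only [Finset.coe_filter, Finset.mem_univ, true_and, Set.mem_setOf_eq]
      intro l hl hxl
      have h := hT.1.2 l hl
      rw [← hins, Finset.inter_insert_of_mem hxl,
        Finset.card_insert_of_notMem (fun h' => hxT.2 (Finset.mem_inter.1 h').2)] at h
      omega

open scoped Classical in
theorem free_two {S : Finset α} (hS : S.card = 2) : (Finset.univ.filter (Free L S)).card = 16 := by
  obtain ⟨a, b, hab, rfl⟩ := Finset.card_eq_two.1 hS
  obtain ⟨m, hm, ham, hbm⟩ := hP.exists_line hab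
  have : Finset.univ.filter (Free L {a, b}) = Finset.univ \ m := by
    ext x
    simp only [Finset.mem_filter, Finset.mem_univ, true_and, Finset.mem_sdiff]
    constructor
    · intro hx hxm
      have h2 : ({a, b} : Finset α) ⊆ m ∩ {a, b} := by simp [Finset.insert_subset_iff, ham, hbm]
      have := (Finset.card_le_card h2).trans (hx m hm hxm)
      rw [Finset.card_pair hab] at this
      omega
    · intro hxm l hl hxl
      rw [Finset.card_le_one]
      intro p hp q hq
      simp only [Finset.mem_inter, Finset.mem_insert, Finset.mem_singleton] at hp hq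
      rcases hp.2 with rfl | rfl <;> rcases hq.2 with rfl | rfl
      · rfl
      · exact absurd hxl (hP.line_unique hm hl hab ham hbm hp.1 hq.1 ▸ hxm)
      · exact absurd hxl (hP.line_unique hm hl hab ham hbm hq.1 hp.1 ▸ hxm)
      · rfl
  rw [this, Finset.card_sdiff_of_subset (Finset.subset_univ _), Finset.card_univ, hP.card_pts,
    hP.card_line hm]

open scoped Classical in
theorem free_three {S : Finset α} (hS : S.card = 3) (harc : Arc L S) :
    (Finset.univ.filter (Free L S)).card = 9 := by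
  obtain ⟨a, b, c, hab, hac, hbc, rfl⟩ := Finset.card_eq_three.1 hS
  obtain ⟨u, hu, hbu, hcu⟩ := hP.exists_line hbc
  obtain ⟨v, hv, hav, hcv⟩ := hP.exists_line hac
  obtain ⟨w, hw, haw, hbw⟩ := hP.exists_line hab
  have three : ∀ k ∈ L, a ∈ k → b ∈ k → c ∈ k → False := by
    intro k hk h1 h2 h3
    have := harc k hk
    rw [Finset.inter_eq_right.2 (by simp [Finset.insert_subset_iff, h1, h2, h3])] at this
    omega
  have huv : u ≠ v := fun e => three u hu (e ▸ hav) hbu hcu
  have huw : u ≠ w := fun e => three u hu (e ▸ haw) hbu hcu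
  have hvw : v ≠ w := fun e => three v hv hav (e ▸ hbw) hcv
  have hfree : Finset.univ.filter (Free L {a, b, c}) = Finset.univ \ (u ∪ v ∪ w) := by
    ext x
    simp only [Finset.mem_filter, Finset.mem_univ, true_and, Finset.mem_sdiff, Finset.mem_union, not_or]
    constructor
    · intro hx
      refine ⟨⟨fun h => ?_, fun h => ?_⟩, fun h => ?_⟩
      · have := Finset.card_le_one.1 (hx u hu h) b (by simp [hbu]) c (by simp [hcu]); exact hbc this
      · have := Finset.card_le_one.1 (hx v hv h) a (by simp [hav]) c (by simp [hcv]); exact hac this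
      · have := Finset.card_le_one.1 (hx w hw h) a (by simp [haw]) b (by simp [hbw]); exact hab this
    · rintro ⟨⟨hxu, hxv⟩, hxw⟩ l hl hxl
      rw [Finset.card_le_one]
      intro p hp q hq
      simp only [Finset.mem_inter, Finset.mem_insert, Finset.mem_singleton] at hp hq
      rcases hp with ⟨hpl, hp | hp | hp⟩ <;> rcases hq with ⟨hql, hq | hq | hq⟩ <;> subst hp hq <;>
        first
          | rfl
          | exact absurd hxl (hP.line_unique hu hl hbc hbu hcu hpl hql ▸ hxu)
          | exact absurd hxl (hP.line_unique hu hl hbc hbu hcu hql hpl ▸ hxu)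
          | exact absurd hxl (hP.line_unique hv hl hac hav hcv hpl hql ▸ hxv)
          | exact absurd hxl (hP.line_unique hv hl hac hav hcv hql hpl ▸ hxv)
          | exact absurd hxl (hP.line_unique hw hl hab haw hbw hpl hql ▸ hxw)
          | exact absurd hxl (hP.line_unique hw hl hab haw hbw hql hpl ▸ hxw)
  have i1 : u ∩ v = {c} := Finset.eq_singleton_iff_unique_mem.2 ⟨by simp [hcu, hcv], fun x hx => by
    rw [Finset.mem_inter] at hx; exact hP.point_unique hu hv huv hx.1 hx.2 hcu hcv⟩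
  have i2 : (u ∪ v) ∩ w = {a, b} := by
    ext x
    simp only [Finset.mem_inter, Finset.mem_union, Finset.mem_insert, Finset.mem_singleton]
    constructor
    · rintro ⟨hx | hx, hxw⟩
      · exact Or.inr (hP.point_unique hu hw huw hx hxw hbu hbw)
      · exact Or.inl (hP.point_unique hv hw hvw hx hxw hav haw)
    · rintro (rfl | rfl)
      · exact ⟨Or.inr hav, haw⟩
      · exact ⟨Or.inl hbu, hbw⟩
  have c1 := Finset.card_union_add_card_inter u v
  have c2 := Finset.card_union_add_card_inter (u ∪ v) w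
  rw [i1, Finset.card_singleton, hP.card_line hu, hP.card_line hv] at c1
  rw [i2, Finset.card_pair hab, hP.card_line hw] at c2
  rw [hfree, Finset.card_sdiff_of_subset (Finset.subset_univ _), Finset.card_univ, hP.card_pts]
  omega

open scoped Classical in
theorem card_four_arcs :
    (((Finset.univ : Finset α).powersetCard 4).filter (Arc L)).card = 2520 := by
  have h2 : (((Finset.univ : Finset α).powersetCard 2).filter (Arc L)).card = 210 := by
    rw [Finset.filter_true_of_mem (fun S hS => hP.arc_of_card_le_two (Finset.mem_powersetCard.1 hS).2.le),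
      Finset.card_powersetCard, Finset.card_univ, hP.card_pts]
    rfl
  have h3 := hP.arcs_step 2 16 le_rfl fun S hS _ => hP.free_two hS
  have h4 := hP.arcs_step 3 9 (by norm_num) fun S hS ha => hP.free_three hS ha
  rw [h2] at h3
  norm_num at h3 h4
  omega

open scoped Classical in
theorem card_ovals :
    (((Finset.univ : Finset α).powersetCard 6).filter (Arc L)).card = 168 := by
  have h : (((Finset.univ : Finset α).powersetCard 6).filter (Arc L)).card * 15 =
      (((Finset.univ : Finset α).powersetCard 4).filter (Arc L)).card * 1 := by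
    refine Finset.card_mul_eq_card_mul (fun T S : Finset α => S ⊆ T) ?_ ?_
    · intro T hT
      simp only [Finset.mem_filter, Finset.mem_powersetCard] at hT
      have : (((Finset.univ : Finset α).powersetCard 4).filter (Arc L)).bipartiteAbove
          (fun T S : Finset α => S ⊆ T) T = T.powersetCard 4 := by
        ext S
        simp only [Finset.mem_bipartiteAbove, Finset.mem_filter, Finset.mem_powersetCard]
        exact ⟨fun h => ⟨h.2, h.1.1.2⟩,
          fun h => ⟨⟨⟨Finset.subset_univ _, h.2⟩, hT.2.mono h.1⟩, h.1⟩⟩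
      rw [this, Finset.card_powersetCard, hT.1.2]
      rfl
    · intro S hS
      simp only [Finset.mem_filter, Finset.mem_powersetCard] at hS
      obtain ⟨H, ⟨hH, hSH⟩, huniq⟩ := hP.existsUnique_oval hS.1.2 hS.2
      rw [Finset.card_eq_one]
      refine ⟨H, Finset.eq_singleton_iff_unique_mem.2 ⟨?_, fun K hK => ?_⟩⟩
      · simp only [Finset.mem_bipartiteBelow, Finset.mem_filter, Finset.mem_powersetCard]
        exact ⟨⟨⟨Finset.subset_univ _, hH.1⟩, hH.2⟩, hSH⟩
      · simp only [Finset.mem_bipartiteBelow, Finset.mem_filter, Finset.mem_powersetCard] at hK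
        exact huniq K ⟨⟨hK.1.1.2, hK.1.2⟩, hK.2⟩
  rw [hP.card_four_arcs] at h
  omega

theorem exists_oval : ∃ H, Oval L H := by
  classical
  obtain ⟨S, hS⟩ := Finset.card_pos.1
    (show 0 < (((Finset.univ : Finset α).powersetCard 6).filter (Arc L)).card by
      rw [hP.card_ovals]; norm_num)
  simp only [Finset.mem_filter, Finset.mem_powersetCard] at hS
  exact ⟨S, hS.1.2, hS.2⟩

end Plane

end CfsgLib.PlaneFour
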